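import Cfsg.Agent.H150.AH.Tri
import Cfsg.Agent.H772.Cls.StarC
import Cfsg.Agent.H197.Cls.Roles3

/-!
# S2451: no bond in `J` for panels with three chambers (helper150)

`roleN_false` : `M i j = 3`, `v` commutes with `s_i`, `s_j`, both descents, `v` a displacement of `x`: `x` has not role N
at `i`.
`bond_false` : if the `i`-panels have three chambers, `v ∉ Dis`.
-/

set_option autoImplicit false
set_option linter.unusedSectionVars false
set_option linter.unusedVariables false

open scoped Pointwise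

namespace Cfsg.Agent.H150.AH

open Cfsg.Agent.Tits.Core Cfsg.Agent.Tits.Core.Bldg Cfsg.Agent.Tits.Exchange Cfsg.Agent.Tits Cfsg.Agent.FixBN
open Cfsg.Agent.H197.Cls Cfsg.Agent.H772.Cls

variable {I : Type*} {M : CoxeterMatrix I} {W : Type*} [Group W] {cs : CoxeterSystem M W} {C : Type*}

local prefix:100 "ℓ" => cs.length

variable {Δ : Bldg cs C} {G : Type*} [Group G] [MulAction G C] {p : ℕ} (S : Sys Δ G p)

include S

variable [hp : Fact p.Prime] [F : OppRes.Cox cs] [Finite C]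

theorem roleN_false (hth : Δ.Thick) {i j : I} (hM : M i j = 3) {v : W}
    (hi : cs.simple i * v = v * cs.simple i) (hj : cs.simple j * v = v * cs.simple j)
    (hil : ℓ (v * cs.simple i) < ℓ v) (hjl : ℓ (v * cs.simple j) < ℓ v) {x : G} (hx : ∃ c, Δ.δ c (x • c) = v)
    (hN : RoleN Δ x i v) : False := by
  obtain ⟨c0, hc0⟩ := hx
  have hss : cs.simple i * cs.simple i = 1 := cs.simple_mul_simple_self i
  obtain ⟨l2, l3, hb, hij⟩ := len_jij (cs := cs) hM
  obtain ⟨D, hD, hDv⟩ := corr_loc S hth hM hi hj hil hjl hc0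
  have h1 : ∀ E ∈ Δ.Pan i c0, Δ.δ E (x • E) = v := by
    intro E hE
    rcases disp_adj S hi hc0 hE with h | h
    · exact h
    · exact absurd h (hN c0 hc0 E hE)
  have h2 : ∀ E ∈ Δ.Pan i D, Δ.δ E (x • E) = v * cs.simple i := by
    intro E hE
    rcases disp_adj S (i := i) (u := v * cs.simple i) (by rw [← mul_assoc, hi]) hDv hE with h | h
    · exact h
    · rw [mul_assoc, hss, mul_one] at h
      exact absurd hDv (hN E h D (Δ.mem_Pan_symm hE))
  have h3 : ∀ c1 ∈ Δ.Pan i c0, ∀ d1 ∈ Δ.Pan i D, d1 ∈ Δ.Pan j c1 → False := by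
    intro c1 hc1 d1 hd1 h
    rcases disp_adj S hj (h1 c1 hc1) h with h4 | h4
    · rw [h2 d1 hd1] at h4
      exact simple_ne_one' cs i (mul_left_cancel (h4.trans (mul_one v).symm))
    · rw [h2 d1 hd1] at h4
      exact hij (F.inj (mul_left_cancel h4))
  have hs := Δ.self_mem_Pan i c0
  have hs' := Δ.self_mem_Pan i D
  have hu := Δ.mem_Res.1 hD
  rcases mem_WJ_three hM hu with h | h | h | h | h | h
  · exact h3 D (by rw [← Δ.eq_of_δ_eq_one h]; exact hs) D hs' (Δ.self_mem_Pan j D)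
  · exact h3 D (Δ.mem_Pan_of_δ h) D hs' (Δ.self_mem_Pan j D)
  · exact h3 c0 hs D hs' (Δ.mem_Pan_of_δ h)
  · obtain ⟨y, hy1, hy2⟩ := Δ.exists_between h (by
      have := cs.length_inv (cs.simple i * cs.simple j)
      rw [mul_inv_rev, cs.inv_simple, cs.inv_simple] at this
      rw [← this, l2, cs.length_simple, cs.length_simple])
    exact h3 y (Δ.mem_Pan_of_δ hy1) D hs' (Δ.mem_Pan_of_δ hy2)
  · obtain ⟨y, hy1, hy2⟩ := Δ.exists_between h (by
      rw [l2, cs.length_simple, cs.length_simple])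
    exact h3 c0 hs y (Δ.mem_Pan_symm (Δ.mem_Pan_of_δ hy2)) (Δ.mem_Pan_of_δ hy1)
  · have l2' : ℓ (cs.simple i * cs.simple j) = 2 := by
      have := cs.length_inv (cs.simple i * cs.simple j)
      rw [mul_inv_rev, cs.inv_simple, cs.inv_simple] at this
      rw [← this, l2]
    obtain ⟨y, hy1, hy2⟩ := Δ.exists_between h (by
      rw [← hb, l3, l2', cs.length_simple])
    obtain ⟨y', hy1', hy2'⟩ := Δ.exists_between hy1 (by
      rw [l2', cs.length_simple, cs.length_simple])
    exact h3 y' (Δ.mem_Pan_of_δ hy1') y (Δ.mem_Pan_symm (Δ.mem_Pan_of_δ hy2)) (Δ.mem_Pan_of_δ hy2')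

/-- **No bond.** -/
theorem bond_false (hth : Δ.Thick) {a b : G} (hab : Good p a b) {i j : I} (hM : M i j = 3)
    (h3 : ∀ x : C, Nat.card {D // D ∈ Δ.Pan i x} = 3) {v : W}
    (hi : cs.simple i * v = v * cs.simple i) (hj : cs.simple j * v = v * cs.simple j)
    (hil : ℓ (v * cs.simple i) < ℓ v) (hjl : ℓ (v * cs.simple j) < ℓ v) : v ∉ Dis Δ a b := by
  intro hv
  rcases roles3 S hth hab h3 hv hi hil with ⟨h1, -⟩ | ⟨-, h1⟩
  · exact roleN_false S hth hM hi hj hil hjl hv.1 h1
  · exact roleN_false S hth hM hi hj hil hjl hv.2 h1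

end Cfsg.Agent.H150.AH
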