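import Cfsg.Agent.H150.AH.WtInt

/-!
# S2451: two `p`-elements (helper150)

If `a` and `b` are `p`-elements, no `w_J`, `J ≠ ∅` commutative, with roles, lies in `Dis`.
-/

set_option autoImplicit false
set_option linter.unusedSectionVars false
set_option linter.unusedVariables false

open scoped Pointwise

namespace Cfsg.Agent.H150.AH

open Cfsg.Agent.Tits.Core Cfsg.Agent.Tits.Core.Bldg Cfsg.Agent.Tits.Exchange Cfsg.Agent.Tits Cfsg.Agent.FixBN
open Cfsg.Agent.H197.Cls Cfsg.Agent.H330.ClassProd

variable {I : Type*} {M : CoxeterMatrix I} {W : Type*} [Group W] {cs : CoxeterSystem M W} {C : Type*}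

local prefix:100 "ℓ" => cs.length

/-- `W_J = W_{J - i} ⟨s_i⟩` if `s_i` centralises `W_J` -/
theorem mem_WJ_split {J : Set I} {i : I} (hc : ∀ j ∈ J, cs.simple i * cs.simple j = cs.simple j * cs.simple i)
    {w : W} (hw : w ∈ WJ cs J) : w ∈ WJ cs (J \ {i}) ∨ w * cs.simple i ∈ WJ cs (J \ {i}) := by
  have hss : cs.simple i * cs.simple i = 1 := cs.simple_mul_simple_self i
  rw [WJ] at hw
  induction hw using Subgroup.closure_induction with
  | mem x hx =>
    obtain ⟨j, hj, rfl⟩ := hx
    by_cases hji : j = i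
    · subst hji
      right
      rw [hss]
      exact one_mem _
    · left
      exact OppRes.simple_mem_WJ ⟨hj, hji⟩
  | one => left; exact one_mem _
  | mul x y hx hy ihx ihy =>
    have hy' : cs.simple i * y = y * cs.simple i := by
      have h1 : WJ cs J ≤ Subgroup.centralizer {cs.simple i} := by
        rw [WJ, Subgroup.closure_le]
        rintro _ ⟨j, hj, rfl⟩
        rw [SetLike.mem_coe, Subgroup.mem_centralizer_singleton_iff]
        exact (hc j hj).symm
      have h2 := h1 hy
      rw [Subgroup.mem_centralizer_singleton_iff] at h2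
      exact h2.symm
    rcases ihx with h1 | h1 <;> rcases ihy with h2 | h2
    · left; exact mul_mem h1 h2
    · right; rw [mul_assoc]; exact mul_mem h1 h2
    · right
      have e : x * y * cs.simple i = (x * cs.simple i) * y := by rw [mul_assoc, mul_assoc, hy']
      rw [e]; exact mul_mem h1 h2
    · left
      have e : x * y = (x * cs.simple i) * (y * cs.simple i) := by
        rw [← hy']
        calc x * y = x * (cs.simple i * cs.simple i) * y := by rw [hss, mul_one]
          _ = _ := by group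
      rw [e]; exact mul_mem h1 h2
  | inv x hx ihx =>
    have hx' : cs.simple i * x = x * cs.simple i := by
      have h1 : WJ cs J ≤ Subgroup.centralizer {cs.simple i} := by
        rw [WJ, Subgroup.closure_le]
        rintro _ ⟨j, hj, rfl⟩
        rw [SetLike.mem_coe, Subgroup.mem_centralizer_singleton_iff]
        exact (hc j hj).symm
      have h2 := h1 hx
      rw [Subgroup.mem_centralizer_singleton_iff] at h2
      exact h2.symm
    rcases ihx with h1 | h1
    · left; exact inv_mem h1
    · right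
      have h2 := inv_mem h1
      rw [← hx', mul_inv_rev, cs.inv_simple] at h2
      exact h2

variable {Δ : Bldg cs C} {G : Type*} [Group G] [MulAction G C] {p : ℕ} (S : Sys Δ G p)

include S

/-- a `p`-element with a chamber of displacement `w_J` has a chamber of displacement `w_J s_i` in its `i`-panel -/
theorem exists_fixed_adj [hp : Fact p.Prime] [F : OppRes.Cox cs] {x : G} (hx : PE p x) {J : Set I} {i : I}
    (hi : i ∈ J) (hc : ∀ j ∈ J, cs.simple i * cs.simple j = cs.simple j * cs.simple i) {c : C}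
    (hd : Δ.δ c (x • c) = wJ cs J) : ∃ e ∈ Δ.Pan i c, Δ.δ e (x • e) = wJ cs J * cs.simple i := by
  have hres : x • c ∈ Δ.Res J c := by
    rw [Δ.mem_Res, hd]
    exact F.wJ_mem J
  obtain ⟨d, hd1, hd2⟩ := exists_fixed_res S hx hres
  have hwc : cs.simple i * wJ cs J = wJ cs J * cs.simple i := by
    have h1 : WJ cs J ≤ Subgroup.centralizer {cs.simple i} := by
      rw [WJ, Subgroup.closure_le]
      rintro _ ⟨j, hj, rfl⟩
      rw [SetLike.mem_coe, Subgroup.mem_centralizer_singleton_iff]
      exact (hc j hj).symm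
    have h2 := h1 (F.wJ_mem J)
    rw [Subgroup.mem_centralizer_singleton_iff] at h2
    exact h2.symm
  have hnot : wJ cs J ∉ WJ cs (J \ {i}) := by
    intro h1
    have h2 : ℓ (wJ cs J * cs.simple i) < ℓ (wJ cs J) := by
      have h3 := F.len_wJ_mul (OppRes.simple_mem_WJ (cs := cs) hi)
      rw [cs.length_simple] at h3
      omega
    exact (F.descent_mem _ _ h1 i h2).2 rfl
  -- a chamber of the `(J - i)`-residue of `d` has its displacement in `W_{J - i}`
  have hdisp : ∀ e, Δ.δ d e ∈ WJ cs (J \ {i}) → Δ.δ e (x • e) ∈ WJ cs (J \ {i}) := by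
    intro e he
    have h1 : e ∈ Δ.Res (J \ {i}) d := Δ.mem_Res.2 he
    have h2 : x • e ∈ Δ.Res (J \ {i}) d := by
      have h3 := S.smul_mem_Res (g := x) h1
      rwa [hd2] at h3
    exact Δ.mem_Res.1 (Δ.mem_Res_trans (Δ.mem_Res_symm h1) h2)
  have hw : Δ.δ d c ∈ WJ cs J := Δ.mem_Res.1 (Δ.mem_Res_symm hd1)
  rcases mem_WJ_split hc hw with h1 | h1
  · exact absurd (hd ▸ hdisp c h1) hnot
  · obtain ⟨e, he, he'⟩ := Δ.exists_step d c i
    rw [← he'] at h1
    refine ⟨e, Δ.mem_Pan_of_δ he, ?_⟩
    rcases disp_adj S hwc hd (Δ.mem_Pan_of_δ he) with h2 | h2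
    · exact absurd (h2 ▸ hdisp e h1) hnot
    · exact h2

/-- if `1` and `w_J` (`J ≠ ∅` commutative) are in `Dis` and the chamber stabilisers are `p`-groups, the maps of
both elements have chambers of displacement `w_J s_i` next to each chamber of displacement `w_J` -/
theorem fixed_adj_of_one [hp : Fact p.Prime] [F : OppRes.Cox cs] (hB : ∀ (c : C) (g : G), g • c = c → PE p g)
    {a b : G} (h1 : (1 : W) ∈ Dis Δ a b) {J : Set I} {i : I} (hi : i ∈ J)
    (hc : ∀ j ∈ J, cs.simple i * cs.simple j = cs.simple j * cs.simple i) :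
    (∀ c, Δ.δ c (a⁻¹ • c) = wJ cs J → ∃ e ∈ Δ.Pan i c, Δ.δ e (a⁻¹ • e) = wJ cs J * cs.simple i) ∧
      ∀ c, Δ.δ c (b • c) = wJ cs J → ∃ e ∈ Δ.Pan i c, Δ.δ e (b • e) = wJ cs J * cs.simple i := by
  obtain ⟨⟨c, hc1⟩, d, hd1⟩ := h1
  have ha : PE p a⁻¹ := hB c _ (Δ.eq_of_δ_eq_one hc1).symm
  have hb : PE p b := hB d _ (Δ.eq_of_δ_eq_one hd1).symm
  exact ⟨fun e he => exists_fixed_adj S ha hi hc he, fun e he => exists_fixed_adj S hb hi hc he⟩

end Cfsg.Agent.H150.AH
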