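import Cfsg.Agent.H150.AH.Bond
import Cfsg.Agent.H150.AH.FixSet
import Cfsg.Agent.H150.AH.WtInt
import Cfsg.Agent.H150.AH.WtFix
import Cfsg.Agent.H150.AH.WtFree
import Cfsg.Agent.H772.Cls.StarD
import Cfsg.Agent.H772.Cls.StarE
import Cfsg.Agent.H197.Cls.Fin
import Cfsg.Agent.H82.AH.Rig
import Cfsg.Prelude.Def_ChevStructure

/-!
# S2451: type `D₄` (helper150)

* `exists_min` : a shortest nontrivial element of `Dis` is a `w_J`;
* `d4_min` : type `D₄`, `Dis ⊄ {1}` : `w_J ∈ Dis`, `J` the three leaves;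
* `d4_two_false` : `q = 2` : `1 ∈ Dis`.
-/

set_option autoImplicit false
set_option linter.unusedSectionVars false
set_option linter.unusedVariables false

open scoped Pointwise

namespace Cfsg.Agent.H150.AH

open Cfsg.Agent.Tits.Core Cfsg.Agent.Tits.Core.Bldg Cfsg.Agent.Tits.Exchange Cfsg.Agent.Tits Cfsg.Agent.FixBN
open Cfsg.Agent.H197.Cls hiding good_of_allConj
open Cfsg.Agent.H772.Cls Cfsg.Agent.H330.ClassProd Cfsg.Agent.H82.AH

section Gen

variable {I : Type*} {M : CoxeterMatrix I} {W : Type*} [Group W] {cs : CoxeterSystem M W} {C : Type*}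

local prefix:100 "ℓ" => cs.length

variable {Δ : Bldg cs C} {G : Type*} [Group G] [MulAction G C] {p : ℕ} (S : Sys Δ G p)

include S

variable [hp : Fact p.Prime] [F : OppRes.Cox cs] [Finite C]

/-- a shortest nontrivial element of `Dis` -/
theorem exists_min (hth : Δ.Thick) {a b : G} (hab : Good p a b) (h : ∃ v ∈ Dis Δ a b, v ≠ 1) :
    ∃ J : Set I, J.Nonempty ∧ wJ cs J ∈ Dis Δ a b ∧ (∀ i ∈ J, cs.simple i * wJ cs J = wJ cs J * cs.simple i) ∧
      (∀ i ∈ J, ℓ (wJ cs J * cs.simple i) < ℓ (wJ cs J)) ∧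
      ∀ v ∈ Dis Δ a b, v ≠ 1 → ℓ (wJ cs J) ≤ ℓ v := by
  classical
  have hne : ∃ n, ∃ v ∈ Dis Δ a b, v ≠ 1 ∧ ℓ v = n := by
    obtain ⟨v, h1, h2⟩ := h
    exact ⟨_, v, h1, h2, rfl⟩
  obtain ⟨v, hv, hv1, hvn⟩ := Nat.find_spec hne
  have hmin : ∀ w ∈ Dis Δ a b, w ≠ 1 → ℓ v ≤ ℓ w := fun w hw hw1 => by
    rw [hvn]; exact Nat.find_min' hne ⟨w, hw, hw1, rfl⟩
  obtain ⟨J, h1, h2, h3⟩ := eq_wJ_of_comm (cs := cs) (w := v) (by
    intro i hi
    by_contra hcon
    obtain ⟨h4, ⟨h5, h6, h7⟩ | ⟨h5, h6, h7⟩⟩ := dis_simple S hth hab hv hcon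
    · rcases hi with hi | hi <;> omega
    · have h8 := hmin _ h4 (by
        intro h9
        apply hv1
        have : v = cs.simple i * (cs.simple i * v * cs.simple i) * cs.simple i := by
          rw [← mul_assoc, ← mul_assoc, cs.simple_mul_simple_self, one_mul, mul_assoc, cs.simple_mul_simple_self,
            mul_one]
        rw [this, h9, mul_one, cs.simple_mul_simple_self])
      omega)
  subst h1
  refine ⟨J, ?_, hv, h3, ?_, hmin⟩
  · by_contra hcon
    rw [Set.not_nonempty_iff_eq_empty] at hcon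
    apply hv1
    rw [hcon]
    have h4 := F.wJ_mem (∅ : Set I)
    rw [WJ, Set.image_empty, Subgroup.closure_empty, Subgroup.mem_bot] at h4
    exact h4
  · intro i hi
    rw [← h3 i hi]
    exact (h2 i).1 hi

end Gen

section D4

/-- the matrix as a function -/
def mD4 (i k : Fin 4) : ℕ := Cfsg.Lie.coxeterD4.M i k

theorem d4_M : ∀ i k : Fin 4, i ≠ 1 → k ≠ 1 → i ≠ k → mD4 i k = 2 := by decide

theorem d4_M3 : ∀ i k : Fin 4, mD4 i k = 3 ∨ mD4 i k = 2 ∨ i = k := by decide

theorem d4_M4 : ∀ k : Fin 4, mD4 k 1 ≠ 3 → k = 1 := by decide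

theorem d4_M1 : ∀ i : Fin 4, i ≠ 1 → Cfsg.Lie.coxeterD4.M i 1 = 3 := by decide

theorem d4_M2 : ∀ i : Fin 4, i ≠ 1 → Cfsg.Lie.coxeterD4.M 1 i = 3 := by decide

variable {W : Type*} [Group W] {cs : CoxeterSystem Cfsg.Lie.coxeterD4 W} {C : Type*}

local prefix:100 "ℓ" => cs.length

variable {Δ : Bldg cs C} {G : Type*} [Group G] [MulAction G C] {p : ℕ} (S : Sys Δ G p)

include S

variable [hp : Fact p.Prime] [F : OppRes.Cox cs] [Finite C]

/-- no reflection -/
theorem d4_refl (hth : Δ.Thick) {a b : G} (hab : Good p a b) (i : Fin 4) : cs.simple i ∉ Dis Δ a b := by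
  obtain ⟨j, hj⟩ : ∃ j, Cfsg.Lie.coxeterD4 i j = 3 := by
    fin_cases i
    · exact ⟨1, rfl⟩
    · exact ⟨0, rfl⟩
    · exact ⟨1, rfl⟩
    · exact ⟨1, rfl⟩
  have := star_d S hth hab hj (u := 1) (by simp) (by simp) (by rw [one_mul, cs.length_one, cs.length_simple]; omega)
    (by rw [one_mul, cs.length_one, cs.length_simple]; omega)
  rwa [one_mul] at this

/-- no product of two commuting leaves -/
theorem d4_pair (hth : Δ.Thick) {a b : G} (hab : Good p a b) {i k : Fin 4} (hi : i ≠ 1) (hk : k ≠ 1) (hik : i ≠ k) :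
    cs.simple i * cs.simple k ∉ Dis Δ a b := by
  have := star_e S hth hab (i := i) (j := 1) (k := k) (d4_M1 i hi) (d4_M2 k hk) (d4_M i k hi hk hik) (u := 1) (by simp) (by simp) (by simp)
    (by rw [one_mul, cs.length_one, cs.length_simple]; omega)
    (by rw [one_mul, cs.length_one, cs.length_simple]; omega)
    (by rw [one_mul, cs.length_one, cs.length_simple]; omega)
  rwa [one_mul] at this

omit S hp [Finite C] in
theorem wJ_pair_comm {i k : Fin 4} (hc : cs.simple i * cs.simple k = cs.simple k * cs.simple i) (hik : i ≠ k) :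
    wJ cs {i, k} = cs.simple i * cs.simple k := by
  symm
  have l2 : ℓ (cs.simple i * cs.simple k) = 2 := by
    rcases cs.length_simple_mul (cs.simple k) i with h | h
    · rw [h, cs.length_simple]
    · rw [cs.length_simple] at h
      have h1 : ℓ (cs.simple i * cs.simple k) = 0 := by omega
      rw [cs.length_eq_zero_iff] at h1
      exact absurd (F.inj (by rw [← cs.inv_simple k]; exact eq_inv_of_mul_eq_one_left h1)) hik
  refine F.eq_wJ_of_descents (mul_mem (simple_mem_WJ cs (by simp)) (simple_mem_WJ cs (by simp))) ?_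
  rintro j (rfl | hj)
  · rw [hc, mul_assoc, cs.simple_mul_simple_self, mul_one, cs.length_simple, ← hc, l2]; omega
  · rw [Set.mem_singleton_iff] at hj
    subst hj
    rw [mul_assoc, cs.simple_mul_simple_self, mul_one, cs.length_simple, l2]; omega

omit S hp [Finite C] in
theorem wJ_single (i : Fin 4) : wJ cs {i} = cs.simple i := by
  symm
  refine F.eq_wJ_of_descents (simple_mem_WJ cs rfl) ?_
  rintro j rfl
  rw [cs.simple_mul_simple_self, cs.length_simple, cs.length_one]
  omega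

/-- independent sets -/
theorem d4_indep (hth : Δ.Thick) {a b : G} (hab : Good p a b) {J : Set (Fin 4)} (hJ : J.Nonempty)
    (hv : wJ cs J ∈ Dis Δ a b) (hind : ∀ i ∈ J, ∀ j ∈ J, Cfsg.Lie.coxeterD4 i j ≠ 3) : J = {0, 2, 3} := by
  classical
  by_cases h1 : (1 : Fin 4) ∈ J
  · exfalso
    have : J = {1} := by
      apply Set.Subset.antisymm _ (Set.singleton_subset_iff.2 h1)
      intro k hk
      have h2 := hind k hk 1 h1
      rw [Set.mem_singleton_iff]
      exact d4_M4 k h2
    rw [this, wJ_single] at hv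
    exact d4_refl S hth hab 1 hv
  · have hs : ∀ i, J ≠ {i} := by
      intro i hi
      rw [hi, wJ_single] at hv
      exact d4_refl S hth hab i hv
    have hp2 : ∀ i k, i ≠ 1 → k ≠ 1 → i ≠ k → J ≠ {i, k} := by
      intro i k hi hk hik h2
      have hc : cs.simple i * cs.simple k = cs.simple k * cs.simple i := by
        exact comm_of_m2 (d4_M i k hi hk hik)
      rw [h2, wJ_pair_comm hc hik] at hv
      exact d4_pair S hth hab hi hk hik hv
    have e0 := hs 0
    have e2 := hs 2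
    have e3 := hs 3
    have e02 := hp2 0 2 (by decide) (by decide) (by decide)
    have e03 := hp2 0 3 (by decide) (by decide) (by decide)
    have e23 := hp2 2 3 (by decide) (by decide) (by decide)
    have hext : ∀ K : Set (Fin 4), (((0 : Fin 4) ∈ J ↔ 0 ∈ K) ∧ ((1 : Fin 4) ∈ J ↔ 1 ∈ K) ∧ ((2 : Fin 4) ∈ J ↔ 2 ∈ K) ∧
        ((3 : Fin 4) ∈ J ↔ 3 ∈ K)) → J = K := by
      rintro K ⟨h0, h1, h2, h3⟩
      ext k
      fin_cases k
      · exact h0
      · exact h1
      · exact h2
      · exact h3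
    by_cases k0 : (0 : Fin 4) ∈ J <;> by_cases k2 : (2 : Fin 4) ∈ J <;> by_cases k3 : (3 : Fin 4) ∈ J
    · exact hext _ (by simp [k0, k2, k3, h1])
    · exact absurd (hext _ (by simp [k0, k2, k3, h1])) e02
    · exact absurd (hext _ (by simp [k0, k2, k3, h1])) e03
    · exact absurd (hext _ (by simp [k0, k2, k3, h1])) e0
    · exact absurd (hext _ (by simp [k0, k2, k3, h1])) e23
    · exact absurd (hext _ (by simp [k0, k2, k3, h1])) e2
    · exact absurd (hext _ (by simp [k0, k2, k3, h1])) e3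
    · exfalso
      obtain ⟨k, hk⟩ := hJ
      fin_cases k
      · exact k0 hk
      · exact h1 hk
      · exact k2 hk
      · exact k3 hk

/-- **The three leaves.** -/
theorem d4_min (hth : Δ.Thick) {a b : G} (hab : Good p a b) (h : ∃ v ∈ Dis Δ a b, v ≠ 1) :
    wJ cs ({0, 2, 3} : Set (Fin 4)) ∈ Dis Δ a b := by
  obtain ⟨J, h1, h2, h3, h4, h5⟩ := exists_min S hth hab h
  have hind : ∀ i ∈ J, ∀ j ∈ J, Cfsg.Lie.coxeterD4 i j ≠ 3 := by
    intro i hi j hj hM
    have h6 := star_c S hth hM h2 (h3 i hi) (h3 j hj) (h4 i hi) (h4 j hj)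
    have h7 : wJ cs J * cs.simple i ≠ 1 := by
      intro h8
      have h9 : wJ cs J = cs.simple i := by
        rw [← cs.inv_simple i]; exact eq_inv_of_mul_eq_one_left h8
      have h10 := h4 j hj
      rw [h9, (len_jij (cs := cs) (i := j) (j := i) (by rw [CoxeterMatrix.symmetric]; exact hM)).1, cs.length_simple] at h10
      omega
    have h8 := h5 _ h6 h7
    have h9 := h4 i hi
    omega
  rw [← d4_indep S hth hab h1 h2 hind]
  exact h2

end D4

section Parity

open Equiv

/-- the transpositions `(0 2)`, `(1 3)` -/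
def tA (t : Perm (Fin 4)) : Prop := t = swap 0 2 ∨ t = swap 1 3

instance (t : Perm (Fin 4)) : Decidable (tA t) := by unfold tA; infer_instance

theorem s4_facts : ∀ g : Perm (Fin 4), let t := g * swap 0 1 * g⁻¹
    (tA t → tA ((swap 0 1 * swap 2 3) * t * (swap 0 1 * swap 2 3)⁻¹) ∧
      (swap 0 1 * swap 2 3) * t * (swap 0 1 * swap 2 3)⁻¹ ≠ t) ∧
    (¬ tA t → ¬ tA ((swap 0 2 * swap 1 3) * t * (swap 0 2 * swap 1 3)⁻¹) ∧
      (swap 0 2 * swap 1 3) * t * (swap 0 2 * swap 1 3)⁻¹ ≠ t) := by decide +kernel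

/-- a class over the transpositions of `S₄` has even size -/
theorem even_class {W : Type*} [Group W] [Finite W] (f : W →* Perm (Fin 4)) {x y v : W} (hx : x * x = 1)
    (hy : y * y = 1) (hfx : f x = swap 0 2 * swap 1 3) (hfy : f y = swap 0 1 * swap 2 3) (hv : f v = swap 0 1) :
    2 ∣ Nat.card {w : W // ConjClasses.mk w = ConjClasses.mk v} := by
  classical
  let K := {w : W // ConjClasses.mk w = ConjClasses.mk v}
  have hK : ∀ w : K, ∃ g : Perm (Fin 4), f w.1 = g * swap 0 1 * g⁻¹ := by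
    rintro ⟨w, hw⟩
    rw [ConjClasses.mk_eq_mk_iff_isConj, isConj_comm, isConj_iff] at hw
    obtain ⟨u, rfl⟩ := hw
    exact ⟨f u, by rw [map_mul, map_mul, map_inv, hv]⟩
  have hcj : ∀ (w : K) (u : W), ConjClasses.mk (u * w.1 * u⁻¹) = ConjClasses.mk v := by
    intro w u
    refine Eq.trans ?_ w.2
    rw [ConjClasses.mk_eq_mk_iff_isConj, isConj_comm, isConj_iff]
    exact ⟨u, rfl⟩
  let φ : K → K := fun w => if tA (f w.1) then ⟨y * w.1 * y⁻¹, hcj w y⟩ else ⟨x * w.1 * x⁻¹, hcj w x⟩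
  have hφ1 : ∀ w : K, tA (f w.1) → φ w = ⟨y * w.1 * y⁻¹, hcj w y⟩ := fun w h => if_pos h
  have hφ2 : ∀ w : K, ¬ tA (f w.1) → φ w = ⟨x * w.1 * x⁻¹, hcj w x⟩ := fun w h => if_neg h
  have hfac : ∀ w : K, (tA (f w.1) → tA (f (φ w).1) ∧ f (φ w).1 ≠ f w.1) ∧
      (¬ tA (f w.1) → ¬ tA (f (φ w).1) ∧ f (φ w).1 ≠ f w.1) := by
    intro w
    obtain ⟨g, hg⟩ := hK w
    obtain ⟨h1, h2⟩ := s4_facts g
    rw [← hg] at h1 h2
    constructor
    · intro h
      rw [hφ1 w h]
      simp only [map_mul, map_inv, hfy]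
      exact h1 h
    · intro h
      rw [hφ2 w h]
      simp only [map_mul, map_inv, hfx]
      exact h2 h
  have hinv : ∀ w : K, φ (φ w) = w := by
    intro w
    have ey : y⁻¹ = y := inv_eq_of_mul_eq_one_left hy
    have ex : x⁻¹ = x := inv_eq_of_mul_eq_one_left hx
    by_cases h : tA (f w.1)
    · rw [hφ1 _ ((hfac w).1 h).1]
      apply Subtype.ext
      rw [hφ1 w h]
      change y * (y * w.1 * y⁻¹) * y⁻¹ = w.1
      rw [ey]
      calc y * (y * w.1 * y) * y = (y * y) * w.1 * (y * y) := by group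
        _ = w.1 := by rw [hy, one_mul, mul_one]
    · rw [hφ2 _ ((hfac w).2 h).1]
      apply Subtype.ext
      rw [hφ2 w h]
      change x * (x * w.1 * x⁻¹) * x⁻¹ = w.1
      rw [ex]
      calc x * (x * w.1 * x) * x = (x * x) * w.1 * (x * x) := by group
        _ = w.1 := by rw [hx, one_mul, mul_one]
  have hne : ∀ w : K, φ w ≠ w := by
    intro w h
    by_cases h' : tA (f w.1)
    · exact ((hfac w).1 h').2 (by rw [h])
    · exact ((hfac w).2 h').2 (by rw [h])
  have := Fintype.ofFinite K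
  have h3 : ((Fintype.card K : ℕ) : ZMod 2) = 0 := by
    have h4 : ∑ _t : K, (1 : ZMod 2) = 0 := by
      refine Finset.sum_involution (fun t _ => φ t) ?_ ?_ ?_ ?_
      · intro t _; decide
      · intro t _ _
        exact hne t
      · intro t _
        exact Finset.mem_univ _
      · intro t _
        exact hinv t
    rwa [Finset.sum_const, nsmul_eq_mul, mul_one, Finset.card_univ] at h4
  rw [Nat.card_eq_fintype_card]
  exact (ZMod.natCast_eq_zero_iff _ 2).1 h3

/-- the images of the generators of `W(D₄)` in `S₄` -/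
def gD4 : Fin 4 → Perm (Fin 4) := ![swap 0 1, swap 1 2, swap 2 3, swap 2 3]

theorem lift_ok : ∀ i j : Fin 4, (gD4 i * gD4 j) ^ mD4 i j = 1 := by decide +kernel

variable {W : Type*} [Group W] {cs : CoxeterSystem Cfsg.Lie.coxeterD4 W}

theorem d4_even [Finite W] : 2 ∣ Nat.card {w : W // ConjClasses.mk w =
    ConjClasses.mk (cs.simple 0 * cs.simple 2 * cs.simple 3)} := by
  have hl : Cfsg.Lie.coxeterD4.IsLiftable gD4 := fun i j => lift_ok i j
  let f : W →* Perm (Fin 4) := cs.lift ⟨gD4, hl⟩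
  have hf : ∀ i, f (cs.simple i) = gD4 i := fun i => cs.lift_apply_simple hl i
  have hc : cs.simple 0 * cs.simple 2 = cs.simple 2 * cs.simple 0 := comm_of_m2 (d4_M 0 2 (by decide) (by decide) (by decide))
  have hss : ∀ k, cs.simple k * cs.simple k = 1 := cs.simple_mul_simple_self
  have hy : (cs.simple 0 * cs.simple 2) * (cs.simple 0 * cs.simple 2) = 1 := by
    calc (cs.simple 0 * cs.simple 2) * (cs.simple 0 * cs.simple 2) =
        (cs.simple 0 * cs.simple 2) * (cs.simple 2 * cs.simple 0) := by rw [hc]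
      _ = cs.simple 0 * (cs.simple 2 * cs.simple 2) * cs.simple 0 := by group
      _ = 1 := by rw [hss, mul_one, hss]
  refine even_class f (x := cs.simple 1 * (cs.simple 0 * cs.simple 2) * cs.simple 1)
    (y := cs.simple 0 * cs.simple 2) ?_ hy ?_ ?_ ?_
  · calc cs.simple 1 * (cs.simple 0 * cs.simple 2) * cs.simple 1 * (cs.simple 1 * (cs.simple 0 * cs.simple 2) * cs.simple 1)
        = cs.simple 1 * (cs.simple 0 * cs.simple 2) * (cs.simple 1 * cs.simple 1) * (cs.simple 0 * cs.simple 2) *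
            cs.simple 1 := by group
      _ = cs.simple 1 * ((cs.simple 0 * cs.simple 2) * (cs.simple 0 * cs.simple 2)) * cs.simple 1 := by
          rw [hss]; group
      _ = 1 := by rw [hy, mul_one, hss]
  · simp only [map_mul, hf]
    decide +kernel
  · simp only [map_mul, hf]
    rfl
  · simp only [map_mul, hf]
    decide +kernel

end Parity

section Two

variable {W : Type*} [Group W] {cs : CoxeterSystem Cfsg.Lie.coxeterD4 W} {C : Type*}

local prefix:100 "ℓ" => cs.length

/-- `w_J` for the three leaves -/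
theorem wJ_leaves [F : OppRes.Cox cs] : wJ cs ({0, 2, 3} : Set (Fin 4)) = cs.simple 0 * cs.simple 2 * cs.simple 3 := by
  have c02 : cs.simple 0 * cs.simple 2 = cs.simple 2 * cs.simple 0 := comm_of_m2 (d4_M 0 2 (by decide) (by decide) (by decide))
  have c03 : cs.simple 0 * cs.simple 3 = cs.simple 3 * cs.simple 0 := comm_of_m2 (d4_M 0 3 (by decide) (by decide) (by decide))
  have c23 : cs.simple 2 * cs.simple 3 = cs.simple 3 * cs.simple 2 := comm_of_m2 (d4_M 2 3 (by decide) (by decide) (by decide))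
  have hss : ∀ k, cs.simple k * cs.simple k = 1 := cs.simple_mul_simple_self
  have e1 : cs.simple 0 * cs.simple 2 * cs.simple 3 * cs.simple 3 = cs.simple 0 * cs.simple 2 := by
    rw [mul_assoc, hss, mul_one]
  have e2 : cs.simple 0 * cs.simple 2 * cs.simple 3 * cs.simple 2 = cs.simple 0 * cs.simple 3 := by
    rw [mul_assoc (cs.simple 0 * cs.simple 2), ← c23, mul_assoc, ← mul_assoc (cs.simple 2), hss, one_mul]
  have e3 : cs.simple 0 * cs.simple 2 * cs.simple 3 * cs.simple 0 = cs.simple 2 * cs.simple 3 := by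
    rw [mul_assoc (cs.simple 0 * cs.simple 2), ← c03, c02, mul_assoc, ← mul_assoc (cs.simple 0), hss, one_mul]
  -- the length
  have hup : ∀ (J : Set (Fin 4)) (v : W), v ∈ WJ cs J → ∀ k, k ∉ J → ℓ (v * cs.simple k) = ℓ v + 1 := by
    intro J v hv k hk
    rcases cs.length_mul_simple v k with h | h
    · exact h
    · exact absurd (F.descent_mem J v hv k (by omega)) hk
  have h0 : cs.simple 0 ∈ WJ cs ({0} : Set (Fin 4)) := simple_mem_WJ cs rfl
  have h02 : cs.simple 0 * cs.simple 2 ∈ WJ cs ({0, 2} : Set (Fin 4)) :=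
    mul_mem (simple_mem_WJ cs (by simp)) (simple_mem_WJ cs (by simp))
  have l2 := hup _ _ h0 2 (by simp)
  have l3 := hup _ _ h02 3 (by simp)
  rw [l2, cs.length_simple] at l3
  have hmem : cs.simple 0 * cs.simple 2 * cs.simple 3 ∈ WJ cs ({0, 2, 3} : Set (Fin 4)) :=
    mul_mem (mul_mem (simple_mem_WJ cs (by simp)) (simple_mem_WJ cs (by simp))) (simple_mem_WJ cs (by simp))
  have hle : ∀ i k, ℓ (cs.simple i * cs.simple k) ≤ 2 := by
    intro i k
    refine (cs.length_mul_le _ _).trans ?_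
    rw [cs.length_simple, cs.length_simple]
  symm
  refine F.eq_wJ_of_descents hmem ?_
  intro k hk
  have hk' : k = 0 ∨ k = 2 ∨ k = 3 := by simpa using hk
  rcases hk' with rfl | rfl | rfl
  · rw [e3, l3]; have := hle 2 3; omega
  · rw [e2, l3]; have := hle 0 3; omega
  · rw [e1, l3]; have := hle 0 2; omega

variable {Δ : Bldg cs C} {G : Type*} [Group G] [MulAction G C] {p : ℕ} (S : Sys Δ G p)

include S

variable [hp : Fact p.Prime] [F : OppRes.Cox cs] [Finite C]

/-- the three leaves, minus one -/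
theorem d4_leaves_mul (hth : Δ.Thick) {a b : G} (hab : Good p a b) {i : Fin 4} (hi : i ∈ ({0, 2, 3} : Set (Fin 4))) :
    wJ cs ({0, 2, 3} : Set (Fin 4)) * cs.simple i ∉ Dis Δ a b := by
  have c02 : cs.simple 0 * cs.simple 2 = cs.simple 2 * cs.simple 0 := comm_of_m2 (d4_M 0 2 (by decide) (by decide) (by decide))
  have c03 : cs.simple 0 * cs.simple 3 = cs.simple 3 * cs.simple 0 := comm_of_m2 (d4_M 0 3 (by decide) (by decide) (by decide))
  have c23 : cs.simple 2 * cs.simple 3 = cs.simple 3 * cs.simple 2 := comm_of_m2 (d4_M 2 3 (by decide) (by decide) (by decide))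
  have hss : ∀ k, cs.simple k * cs.simple k = 1 := cs.simple_mul_simple_self
  have e1 : cs.simple 0 * cs.simple 2 * cs.simple 3 * cs.simple 3 = cs.simple 0 * cs.simple 2 := by
    rw [mul_assoc, hss, mul_one]
  have e2 : cs.simple 0 * cs.simple 2 * cs.simple 3 * cs.simple 2 = cs.simple 0 * cs.simple 3 := by
    rw [mul_assoc (cs.simple 0 * cs.simple 2), ← c23, mul_assoc, ← mul_assoc (cs.simple 2), hss, one_mul]
  have e3 : cs.simple 0 * cs.simple 2 * cs.simple 3 * cs.simple 0 = cs.simple 2 * cs.simple 3 := by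
    rw [mul_assoc (cs.simple 0 * cs.simple 2), ← c03, c02, mul_assoc, ← mul_assoc (cs.simple 0), hss, one_mul]
  have hk' : i = 0 ∨ i = 2 ∨ i = 3 := by simpa using hi
  rw [wJ_leaves]
  rcases hk' with rfl | rfl | rfl
  · rw [e3]; exact d4_pair S hth hab (by decide) (by decide) (by decide)
  · rw [e2]; exact d4_pair S hth hab (by decide) (by decide) (by decide)
  · rw [e1]; exact d4_pair S hth hab (by decide) (by decide) (by decide)

/-- **If `1 ∈ Dis`**, `Dis = {1}`; every `q`. -/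
theorem d4_one [Finite G] (hth : Δ.Thick) (hfaith : ∀ g : G, (∀ x : C, g • x = x) → g = 1) {a b : G} (hab : Good p a b)
    (h1 : (1 : W) ∈ Dis Δ a b) : ∀ w ∈ Dis Δ a b, w = 1 := by
  by_contra hcon
  push Not at hcon
  have h2 := d4_min S hth hab hcon
  have : Nonempty C := ⟨h1.1.choose⟩
  have : Finite W := finite_W Δ
  obtain ⟨ha, hb⟩ := pe_of_one_mem S hth hfaith hab h1 (d4_refl S hth hab)
  have hi : (0 : Fin 4) ∈ ({0, 2, 3} : Set (Fin 4)) := by simp
  have hc : ∀ j ∈ ({0, 2, 3} : Set (Fin 4)), cs.simple 0 * cs.simple j = cs.simple j * cs.simple 0 := by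
    intro j hj
    have hk' : j = 0 ∨ j = 2 ∨ j = 3 := by simpa using hj
    rcases hk' with rfl | rfl | rfl
    · rfl
    · exact comm_of_m2 (d4_M 0 2 (by decide) (by decide) (by decide))
    · exact comm_of_m2 (d4_M 0 3 (by decide) (by decide) (by decide))
  obtain ⟨⟨c, hc1⟩, d, hd⟩ := h2
  have ha' : PE p a⁻¹ := by
    obtain ⟨k, hk⟩ := ha
    exact ⟨k, by rw [inv_pow, hk, inv_one]⟩
  obtain ⟨e, -, he⟩ := exists_fixed_adj S ha' hi hc hc1
  obtain ⟨e', -, he'⟩ := exists_fixed_adj S hb hi hc hd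
  exact d4_leaves_mul S hth hab hi ⟨⟨e, he⟩, e', he'⟩

end Two

section Two2

variable {W : Type*} [Group W] {cs : CoxeterSystem Cfsg.Lie.coxeterD4 W} {C : Type*}

local prefix:100 "ℓ" => cs.length

variable {Δ : Bldg cs C} {G : Type*} [Group G] [MulAction G C] (S : Sys Δ G 2)

include S

/-- **`q = 2`** : `1 ∈ Dis`. -/
theorem d4_two [F : OppRes.Cox cs] [Finite C] [Nonempty C] [Finite G] (hth : Δ.Thick) (hq : ∀ i, Δ.Param i 2)
    {a b c : G} (hc : AllConj a b c) (hpe : PE 2 c) : (1 : W) ∈ Dis Δ a b := by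
  by_contra h1
  have : Fact (Nat.Prime 2) := ⟨Nat.prime_two⟩
  have : Finite W := finite_W Δ
  have hab : Good 2 a b := good_of_allConj hc hpe
  have h3 : ∀ i, ∀ x : C, Nat.card {D // D ∈ Δ.Pan i x} = 3 := fun i x => hq i x
  have hJ : ∀ J : Set (Fin 4), wJ cs J ∈ Dis Δ a b → (∀ i ∈ J, cs.simple i * wJ cs J = wJ cs J * cs.simple i) →
      (∀ i ∈ J, ∀ j ∈ J, Cfsg.Lie.coxeterD4 i j ≠ 3) := by
    intro J hv hcm i hi j hj hM
    have hl := isLongest_wJ cs J
    have hd : ∀ k ∈ J, ℓ (wJ cs J * cs.simple k) < ℓ (wJ cs J) := by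
      intro k hk
      have := (hl.2 (cs.simple k) (simple_mem_WJ cs hk)).1
      rw [cs.length_simple] at this
      omega
    exact bond_false S hth hab hM (h3 i) (hcm i hi) (hcm j hj) (hd i hi) (hd j hj) hv
  obtain ⟨v, hv, hodd⟩ := exists_class_of_roles S hth hc hpe (by
    intro J hv hcm
    have hl := isLongest_wJ cs J
    refine ⟨fun i hi j hj => ?_, fun i hi => ?_⟩
    · rcases d4_M3 i j with h | h | h
      · exact absurd h (hJ J hv hcm i hi j hj)
      · exact comm_of_m2 h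
      · rw [h]
    · have hd : ℓ (wJ cs J * cs.simple i) < ℓ (wJ cs J) := by
        have := (hl.2 (cs.simple i) (simple_mem_WJ cs hi)).1
        rw [cs.length_simple] at this
        omega
      rcases roles3 S hth hab (h3 i) hv (hcm i hi) hd with ⟨-, h⟩ | ⟨h, -⟩
      · exact Or.inr fun E hE => h E (Or.inl hE)
      · exact Or.inl fun E hE => h E (Or.inl hE))
  obtain ⟨w, J, e1, e2⟩ := exists_wJ S hth hab hv
  have hvJ : wJ cs J ∈ Dis Δ a b := by
    rw [← e1]; exact dis_conj_mem S hth hab hv w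
  have hne : J.Nonempty := by
    rw [Set.nonempty_iff_ne_empty]
    rintro rfl
    apply h1
    have h4 := F.wJ_mem (∅ : Set (Fin 4))
    rw [WJ, Set.image_empty, Subgroup.closure_empty, Subgroup.mem_bot] at h4
    rwa [h4] at hvJ
  have h5 := d4_indep S hth hab hne hvJ (hJ J hvJ e2)
  rw [h5, wJ_leaves] at e1
  apply hodd
  have h6 : ConjClasses.mk v = ConjClasses.mk (cs.simple 0 * cs.simple 2 * cs.simple 3) := by
    rw [ConjClasses.mk_eq_mk_iff_isConj, isConj_iff]
    exact ⟨w, e1⟩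
  rw [h6]
  exact d4_even

end Two2

end Cfsg.Agent.H150.AH
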