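import Cfsg.Agent.H82.AH.PackAll
import Cfsg.Agent.H150.AH.D4
import Cfsg.Agent.S1082
import Cfsg.Agent.S0296

/-!
# S2451: (C) for `PΩ₈⁺(q)` (helper150)
-/

set_option autoImplicit false
set_option linter.unusedSectionVars false

open scoped Pointwise

namespace Cfsg.Agent.H150.AH

open CoxeterSystem Cfsg.Agent.ChevalleyStructure.CoxeterGeom Cfsg.Agent.Tits.Roots Cfsg.Agent.Tits.Core
  Cfsg.Agent.Tits.RootComb Cfsg.Agent.Nodes.Comb Cfsg.Agent.Nodes.Reps Cfsg.Agent.Nodes.BNOf Cfsg.Agent.Nodes.BNOf.RGD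
  Cfsg.Agent.FixBN Cfsg.Agent.Tits.OfBN Cfsg.Agent.Tits.OppRes Cfsg.Agent.LieExceptional.BNPairCore
  Cfsg.Agent.OddHalf.Table.AutBldg Cfsg.Agent.OddHalf.Table.AutRGD Cfsg.Agent.OddHalf.Table.AutNorm
  Cfsg.Agent.Tits Cfsg.Agent.Nodes.RGDLib Cfsg.Agent.UGT.U2.FOne
open Cfsg.Agent.Tits.Core.Bldg
open Cfsg.Agent.H197.Cls hiding good_of_allConj
open Cfsg.Lie Cfsg.Agent.ChevalleyStructure Cfsg.Agent.ChevalleyStructure.Elts
  Cfsg.Agent.ChevalleyStructure.RootVec Cfsg.Agent.ChevalleyStructure.RootVecTab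
  Cfsg.Agent.ChevalleyStructure.NPerm Cfsg.Agent.ChevalleyStructure.CoxeterGeomTypes
  Cfsg.Agent.Nodes.RGDChev Cfsg.Agent.Nodes.RGDFold Cfsg.Agent.Nodes Cfsg.Agent.H82.AH Cfsg.Agent.H27.AH
  Cfsg.Agent.H330.ClassProd

universe u

theorem d4_tor_tab : chevD4.cartan 0 (wp chevD4 (l := 4) [0, 2, 3] (chevD4.simple 1)) - chevD4.cartan 0 (chevD4.simple 1)
      = 2 ∧
    chevD4.cartan 1 (wp chevD4 (l := 4) [0, 2, 3] (chevD4.simple 1)) - chevD4.cartan 1 (chevD4.simple 1) = -3 := by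
  decide +kernel

section Tor

variable (hp : IsType chevD4 4 coxeterD4) {K : Type u} [Field K]
  [Fintype K] {W : Type*} [Group W] [Finite W] {cs : CoxeterSystem coxeterD4 W} {p : ℕ} [Fact p.Prime] [CharP K p]
  (hgen : B cs hp.isCartan ((chevD4.diagonalSubgroup K).subgroupOf (chevD4.group K))
      (fun x => (XV chevD4 4 K x).subgroupOf (chevD4.group K)) ⊔ NN cs (rgd (K := K) hp cs p).nsys = ⊤)
  [hN : ((((rgd (K := K) hp cs p).bnPair hgen).B ⊓ ((rgd (K := K) hp cs p).bnPair hgen).N).subgroupOf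
    ((rgd (K := K) hp cs p).bnPair hgen).N).Normal]
  (cs' : CoxeterSystem coxeterD4 (WP ((rgd (K := K) hp cs p).bnPair hgen)))
  (hcs : ∀ i, cs'.simple i = QuotientGroup.mk
    (⟨(eS (rgd (K := K) hp cs p) hgen i : ↥(chevD4.group K)), ((rgd (K := K) hp cs p).bnPair hgen).subset
      (eS (rgd (K := K) hp cs p) hgen i).2⟩ : ((rgd (K := K) hp cs p).bnPair hgen).N))
  (hcore : (B cs hp.isCartan ((chevD4.diagonalSubgroup K).subgroupOf (chevD4.group K))
      (fun x => (XV chevD4 4 K x).subgroupOf (chevD4.group K))).normalCore = ⊥)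

include hcore in
/-- **the product of the leaves is not a common displacement** -/
theorem leaves_not_mem (hq : 3 ≤ Fintype.card K) {a b : ↥(chevD4.group K)} (hab : Good p a b) :
    cs'.simple 0 * cs'.simple 2 * cs'.simple 3 ∉ Dis (Bl (rgd (K := K) hp cs p) hgen cs' hcs) a b := by
  intro hw
  have hw' : fw cs cs' (cs.wordProd [0, 2, 3]) ∈ Dis (Bl (rgd (K := K) hp cs p) hgen cs' hcs) a b := by
    have : fw cs cs' (cs.wordProd [0, 2, 3]) = cs'.simple 0 * cs'.simple 2 * cs'.simple 3 := by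
      simp only [wordProd_cons, wordProd_nil, mul_one, map_mul, fw_simple, mul_assoc]
    rwa [this]
  have hs := simple_lt hp.inList (lt_rank hp (1 : Fin 4))
  have key := fun j => cartan_dvd hp hgen cs' hcs hcore hab hw' hs (wp_lt hp [0, 2, 3] hs)
    (vec_wp hp cs [0, 2, 3] hs) j
  have k0 := key 0
  have k1 := key 1
  have e0 := d4_tor_tab.1
  have e1 := d4_tor_tab.2
  change ((Fintype.card K : ℤ) - 1) ∣ chevD4.cartan 0 (wp chevD4 (l := 4) [0, 2, 3] (chevD4.simple 1)) -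
    chevD4.cartan 0 (chevD4.simple 1) at k0
  change ((Fintype.card K : ℤ) - 1) ∣ chevD4.cartan 1 (wp chevD4 (l := 4) [0, 2, 3] (chevD4.simple 1)) -
    chevD4.cartan 1 (chevD4.simple 1) at k1
  rw [e0] at k0
  rw [e1] at k1
  have h1 : ((Fintype.card K : ℤ) - 1) ∣ 1 := by
    have := dvd_add k0 k1
    exact (Int.dvd_neg.1 this)
  have h2 := Int.le_of_dvd (by norm_num) h1
  have h5 : (3 : ℤ) ≤ Fintype.card K := by exact_mod_cast hq
  omega

end Tor

theorem conn3_D4 : Conn3 coxeterD4 := by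
  intro P h hex
  have s : ∀ i j, coxeterD4 i j = 3 → (P i ↔ P j) := fun i j hij =>
    ⟨h i j hij, h j i (by rw [CoxeterMatrix.symmetric]; exact hij)⟩
  have h01 := s 0 1 rfl
  have h21 := s 2 1 rfl
  have h31 := s 3 1 rfl
  have key : ∀ i, P i ↔ P 1 := by
    intro i
    fin_cases i
    · exact h01
    · exact Iff.rfl
    · exact h21
    · exact h31
  obtain ⟨i, hi⟩ := hex
  exact fun j => (key j).2 ((key i).1 hi)

theorem isType_D4 : IsType chevD4 4 coxeterD4 := by simp [IsType, typeList]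

/-- `D₄(q)`, `q ≥ 3` -/
theorem hasDis_D4 {K : Type u} [Field K] [Fintype K] (p : ℕ) [Fact p.Prime] [CharP K p]
    [IsSimpleGroup ↥(chevD4.group K)] (hq : 3 ≤ Fintype.card K) :
    HasDis p ↥(chevD4.group K) coxeterD4 (fun _ => Fintype.card K)
      (fun _ _ cs w => w ≠ cs.simple 0 * cs.simple 2 * cs.simple 3) := by
  have hp := isType_D4
  have hW : Finite coxeterD4.Group := RGDChev.finite_W hp coxeterD4.toCoxeterSystem
  refine hasDis_of_rgd (rgd (K := K) hp coxeterD4.toCoxeterSystem p)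
    (rgd_gen_of_G1 (rgd (K := K) hp coxeterD4.toCoxeterSystem p) (RGDChev.G1_eq_top hp _)) 0 (card_untw hp)
    fun hN cs' hcs hcore a b hab w hw hwi => ?_
  rw [hwi] at hw
  exact leaves_not_mem hp _ cs' hcs hcore hq hab hw

theorem notC_D4 {K : Type u} [Field K] [Fintype K] (p : ℕ) [hpf : Fact p.Prime] [CharP K p]
    [IsSimpleGroup ↥(chevD4.group K)] : NotC p ↥(chevD4.group K) := by
  rcases Nat.lt_or_ge 2 (Fintype.card K) with h3 | h2
  · obtain ⟨W, i1, i2, cs, C, i3, i4, i5, Δ, S, hth, hpar, hfaith, hQ⟩ := hasDis_D4 (K := K) p h3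
    have F : OppRes.Cox cs := inferInstance
    refine notC_of_sys S hfaith conn3_D4 fun a b hab w hw => ?_
    by_contra hne
    have h4 := d4_min S hth hab ⟨w, hw, hne⟩
    rw [wJ_leaves] at h4
    exact hQ a b hab _ h4 rfl
  · have hc2 : Fintype.card K = 2 := le_antisymm h2 Fintype.one_lt_card
    have hp2 : p = 2 := by
      obtain ⟨n, hn⟩ := FiniteField.card K p
      rw [hc2] at hn
      exact ((Nat.prime_two).eq_one_or_self_of_dvd p (by rw [hn.2]; exact dvd_pow_self _ n.pos.ne')).resolve_left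
        hpf.out.one_lt.ne'
    subst hp2
    obtain ⟨W, i1, i2, cs, C, i3, i4, i5, Δ, S, hth, hpar, hfaith, hQ⟩ := hasDis_untw (K := K) 2 isType_D4 0
    have F : OppRes.Cox cs := inferInstance
    rw [hc2] at hpar
    intro a b c ha hb hc hall hord
    have hpe : PE 2 c := by
      obtain ⟨k, hk⟩ := hord
      exact ⟨k, by rw [← hk]; exact pow_orderOf_eq_one c⟩
    have hab : Good 2 a b := H197.Cls.good_of_allConj hall hord
    have h1 := d4_two S hth hpar hall hpe
    exact false_of_one_mem S hfaith conn3_D4 ha hb h1 fun i => d4_refl S hth hab i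

/-- **(C) for `PΩ₈⁺(q)`.** -/
theorem notC_POmega_four {F : Type u} [Field F] [Fintype F] (p : ℕ) [hpf : Fact p.Prime] [CharP F p] :
    NotC p (POmega F (quadFormPlus 4 F)) := by
  obtain ⟨e⟩ := Cfsg.Agent.S1082.result (F := F)
  have h1 := Cfsg.Agent.S0296.result (F := F) 4 le_rfl
  have h2 : IsSimpleGroup ↥(chevD4.group F) := e.isSimpleGroup
  exact NotC.of_equiv e.symm (notC_D4 p)

end Cfsg.Agent.H150.AH
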