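import Cfsg.Agent.H150.AH.D4Tor
import Cfsg.Agent.H772.Cls.Simply
import Cfsg.Agent.Mrg.Omega.ML.Ex.Typ.List

/-!
# S2451: (C) for `PΩ_{2m}⁺(q)`, `m ≥ 4` (helper150)
-/

set_option autoImplicit false
set_option linter.unusedSectionVars false

open scoped Pointwise

namespace Cfsg.Agent.H150.AH

open CoxeterSystem Cfsg.Agent.ChevalleyStructure.CoxeterGeom Cfsg.Agent.Tits.Roots Cfsg.Agent.Tits.Core
  Cfsg.Agent.Tits.RootComb Cfsg.Agent.Nodes.Comb Cfsg.Agent.Nodes.Reps Cfsg.Agent.Nodes.BNOf Cfsg.Agent.Nodes.BNOf.RGD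
  Cfsg.Agent.FixBN Cfsg.Agent.Tits.OfBN Cfsg.Agent.Tits.OppRes Cfsg.Agent.LieExceptional.BNPairCore
  Cfsg.Agent.OddHalf.Table.AutBldg Cfsg.Agent.OddHalf.Table.AutRGD Cfsg.Agent.OddHalf.Table.AutNorm
  Cfsg.Agent.Tits Cfsg.Agent.Nodes.RGDLib Cfsg.Agent.UGT.U2.FOne
open Cfsg.Agent.Tits.Core.Bldg Cfsg.Agent.H197.Cls Cfsg.Agent.H772.Cls
open Cfsg.Agent.H82.AH Cfsg.Agent.H27.AH Cfsg.Agent.Omega.ML.Ex.Typ

universe u

/-- a simple group with a root group datum: the package -/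
theorem hasDis_of_rgdt {p l : ℕ} [Fact p.Prime] {M : CoxeterMatrix (Fin l)} {G : Type u} [Group G] [Finite G]
    [IsSimpleGroup G] (i0 : Fin l) (hG : HasRGDT p M G) : ∃ qs : Fin l → ℕ, HasDis p G M qs (fun _ _ _ _ => True) := by
  obtain ⟨A, h, T, n, X, hW, R, hX⟩ := hG
  exact ⟨fun i => Nat.card (X (sr i)), hasDis_of_rgd R (rgd_gen_of_G1 R hX) i0 (fun _ => rfl)
    fun hN cs' hcs hcore a b hab w hw => trivial⟩

/-- simply laced types with `Nbd` -/
theorem notC_of_nbd {p l : ℕ} [Fact p.Prime] {M : CoxeterMatrix (Fin l)} {G : Type u} [Group G] [Finite G]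
    [IsSimpleGroup G] (i0 : Fin l) (hG : HasRGDT p M G) (hM : Nbd M) (hc : Conn3 M) : NotC p G := by
  obtain ⟨qs, W, i1, i2, cs, C, i3, i4, i5, Δ, S, hth, hpar, hfaith, hQ⟩ := hasDis_of_rgdt i0 hG
  have F : OppRes.Cox cs := inferInstance
  exact notC_of_sys S hfaith hc fun a b hab w hw => dis_le_one S hth hab hM hw

theorem conn3_D (n : ℕ) (hn : 1 ≤ n) : Conn3 (Nodes.TypeD.M n) := by
  intro P h hex
  have h3 : ∀ i j : Fin (n + 2), Nodes.TypeD.Adj i j → (P i ↔ P j) := by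
    intro i j hij
    have hne : i ≠ j := by
      rintro rfl
      simp only [Nodes.TypeD.Adj] at hij
      omega
    have e1 : Nodes.TypeD.M n i j = 3 := by
      rw [Nodes.TypeD.M_apply, if_neg hne, if_pos (Or.inl hij)]
    exact ⟨h i j e1, h j i (by rw [CoxeterMatrix.symmetric]; exact e1)⟩
  -- every node is equivalent to `0`
  have key : ∀ k : ℕ, ∀ hk : k < n + 1, (P ⟨k, by omega⟩ ↔ P ⟨0, by omega⟩) := by
    intro k
    induction k with
    | zero => intro hk; exact Iff.rfl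
    | succ k ih =>
      intro hk
      exact (h3 ⟨k, by omega⟩ ⟨k + 1, by omega⟩ (Or.inl ⟨hk, rfl⟩)).symm.trans (ih (by omega))
  have key2 : ∀ i : Fin (n + 2), P i ↔ P ⟨0, by omega⟩ := by
    intro i
    by_cases hi : (i : ℕ) < n + 1
    · exact key i hi
    · have hi' : (i : ℕ) = n + 1 := by omega
      refine Iff.trans ?_ (key (n - 1) (by omega))
      exact (h3 ⟨n - 1, by omega⟩ i (by simp only [Nodes.TypeD.Adj]; omega)).symm
  obtain ⟨i, hi⟩ := hex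
  exact fun j => (key2 j).2 ((key2 i).1 hi)

/-- **(C) for `PΩ_{2m}⁺(q)`, `m ≥ 4`.** -/
theorem notC_pplus {F : Type u} [Field F] [Fintype F] (p : ℕ) [hpf : Fact p.Prime] [CharP F p] {m : ℕ} (hm : 4 ≤ m) :
    NotC p (POmega F (quadFormPlus m F)) := by
  rcases hm.eq_or_lt with rfl | hm
  · exact notC_POmega_four p
  · obtain ⟨n, rfl⟩ : ∃ n, m = n + 3 := ⟨m - 3, by omega⟩
    have h1 := Cfsg.Agent.S0296.result (F := F) (n + 3) (by omega)
    exact notC_of_nbd 0 (typ_PO_plus n) (nbd_D (by omega)) (conn3_D _ (by omega))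

end Cfsg.Agent.H150.AH
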